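import Mathlib
import Cfsg.Agent.Lib.LocEven.Basic
import Cfsg.Agent.Lib.ZStar.UniqueInvol
import Cfsg.Agent.Lib.Inv73.Transfer

/-! Subgroups with a unique involution. -/

set_option autoImplicit false

namespace H82.IN

open Subgroup H68

variable {G : Type*} [Group G]

/-- 2-elements. -/
def TE (x : G) : Prop := ∃ k : ℕ, x ^ 2 ^ k = 1

theorem TE.of_mem {T : Subgroup G} (hT : IsPGroup 2 T) {x : G} (hx : x ∈ T) : TE x :=
  isPGroup_iff_forall.mp hT x hx

theorem TE.pg {x : G} (h : TE x) : IsPGroup 2 (zpowers x) :=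
  let ⟨_, hk⟩ := h; isPGroup_zpowers hk

theorem TE.of_sq {x : G} (h : x * x = 1) : TE x := ⟨1, by rw [pow_one, pow_two, h]⟩

theorem TE.conj {x : G} (h : TE x) (g : G) : TE (g * x * g⁻¹) :=
  let ⟨k, hk⟩ := h; ⟨k, by rw [conj_pow, hk]; group⟩

/-- `z` is the unique involution of `K`. -/
structure UI (K : Subgroup G) (z : G) : Prop where
  mem : z ∈ K
  sq : z * z = 1
  ne : z ≠ 1
  uniq : ∀ t ∈ K, t * t = 1 → t = 1 ∨ t = z

namespace UI

variable {K Q : Subgroup G} {z : G}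

theorem inv (h : UI K z) : z⁻¹ = z := inv_eq_of_mul_eq_one_right h.sq

theorem mono (h : UI K z) (hQ : Q ≤ K) (hz : z ∈ Q) : UI Q z :=
  ⟨hz, h.sq, h.ne, fun t ht => h.uniq t (hQ ht)⟩

theorem cj (h : UI K z) (g : G) : UI (cj g K) (g * z * g⁻¹) := by
  refine ⟨conj_mem_cj.mpr h.mem, by rw [conj_mul, h.sq]; group, fun e => h.ne ?_, fun t ht e => ?_⟩
  · simpa using e
  · rcases h.uniq _ (mem_cj.mp ht) (by
      calc g⁻¹ * t * g * (g⁻¹ * t * g) = g⁻¹ * (t * t) * g := by group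
        _ = 1 := by rw [e]; group) with e' | e'
    · left
      calc t = g * (g⁻¹ * t * g) * g⁻¹ := by group
        _ = 1 := by rw [e']; group
    · right; rw [← e']; group

theorem conj_eq (h : UI K z) {g : G} (hg : g ∈ normalizer (K : Set G)) : g * z * g⁻¹ = z := by
  have h1 := h.cj g
  rw [cj_eq_of_mem_normalizer hg] at h1
  exact (h.uniq _ h1.mem h1.sq).resolve_left h1.ne

theorem comm (h : UI K z) {g : G} (hg : g ∈ normalizer (K : Set G)) : g * z = z * g :=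
  mul_inv_eq_iff_eq_mul.mp (h.conj_eq hg)

theorem comm' (h : UI K z) {g : G} (hg : g ∈ K) : g * z = z * g := h.comm (le_normalizer hg)

theorem pow_eq (h : UI K z) {d : G} (hd : d ∈ K) (ht : TE d) (h1 : d ≠ 1) :
    ∃ j : ℕ, d ^ j = z := by
  obtain ⟨k, hk⟩ := ht
  induction k generalizing d with
  | zero => exact absurd (by simpa using hk) h1
  | succ k ih =>
    by_cases h2 : d * d = 1
    · exact ⟨1, by rw [pow_one]; exact (h.uniq d hd h2).resolve_left h1⟩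
    · obtain ⟨j, hj⟩ := ih (K.mul_mem hd hd) h2 (by rw [← pow_two, ← pow_mul, ← pow_succ', hk])
      exact ⟨2 * j, by rw [pow_mul, pow_two, hj]⟩

theorem mem_of (h : UI K z) {d : G} (hd : d ∈ K) (ht : TE d) (h1 : d ≠ 1) {N : Subgroup G}
    (hN : d ∈ N) : z ∈ N :=
  let ⟨j, hj⟩ := h.pow_eq hd ht h1; hj ▸ N.pow_mem hN j

theorem pow_sq (h : UI K z) {d : G} (hd : d ∈ K) (ht : TE d) (h1 : d * d ≠ 1) :
    ∃ j : ℕ, d ^ j * d ^ j = z := by
  obtain ⟨k, hk⟩ := ht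
  obtain ⟨j, hj⟩ := h.pow_eq (K.mul_mem hd hd)
    ⟨k, by rw [← pow_two, ← pow_mul, mul_comm, pow_mul, hk, one_pow]⟩ h1
  exact ⟨j, by rw [← hj, (Commute.refl d).mul_pow]⟩

theorem inv_of_sq (h : UI K z) {a : G} (ha : a * a = z) : a⁻¹ = a * z := by
  rw [inv_eq_iff_mul_eq_one, ← mul_assoc, ha, h.sq]

theorem ne_inv (h : UI K z) {a : G} (ha : a * a = z) : a⁻¹ ≠ a := fun e =>
  h.ne (by rw [← ha]; nth_rewrite 1 [← e]; group)

theorem gens [Finite G] (h : UI Q z) (hQ : IsPGroup 2 Q) (hc : ¬ IsCyclic Q) :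
    ∃ g b v : G, v ∈ zpowers g ∧ v * v = z ∧ b * b = z ∧ b * g * b⁻¹ = g⁻¹ ∧ b ∉ zpowers g ∧
      ∀ x, x ∈ Q ↔ ∃ i : ℤ, x = g ^ i ∨ x = g ^ i * b := by
  have hU : H41.UniqInv Q := fun u v hu hv hu1 hv1 => Subtype.ext (by
    rw [(h.uniq u u.2 (congrArg Subtype.val hu)).resolve_left fun e => hu1 (Subtype.ext e),
      (h.uniq v v.2 (congrArg Subtype.val hv)).resolve_left fun e => hv1 (Subtype.ext e)])
  obtain ⟨n, ⟨e⟩⟩ := (hU.cyclic_or_quaternion hQ).resolve_left hc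
  obtain ⟨g, b, ho, hb, hi, hn, hm⟩ := H41.exists_gens_of_quaternion (by positivity) e
  have hg : g ∈ Q := (hm g).mpr ⟨1, Or.inl (zpow_one g).symm⟩
  have ho' : orderOf g = 2 ^ (n + 1 + 1) := by rw [ho]; ring
  have hz : g ^ 2 ^ (n + 1) = z :=
    (h.uniq _ (Q.pow_mem hg _) (H41.half_pow_mul_self ho').1).resolve_left
      (H41.half_pow_mul_self ho').2
  exact ⟨g, b, g ^ 2 ^ n, pow_mem (mem_zpowers g) _, by rw [← pow_add, ← hz]; congr 1; ring,
    hb.trans hz, hi, hn, hm⟩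

end UI

/-- A generalised quaternion group, elementwise. -/
structure QU (Q : Subgroup G) (z : G) : Prop extends UI Q z where
  pg : IsPGroup 2 Q
  ex : ∀ b ∈ Q, ∃ p ∈ Q, p * p = z ∧ p * b * p⁻¹ = b⁻¹

theorem conj_inv_of_gen {g b x : G} (hi : b * g * b⁻¹ = g⁻¹) (hx : x ∈ zpowers g) :
    b * x * b⁻¹ = x⁻¹ := by
  obtain ⟨i, rfl⟩ := mem_zpowers_iff.mp hx
  rw [← conj_zpow, hi, inv_zpow]

theorem comm_of_gen {g x y : G} (hx : x ∈ zpowers g) (hy : y ∈ zpowers g) : x * y = y * x := by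
  obtain ⟨i, rfl⟩ := mem_zpowers_iff.mp hx
  obtain ⟨j, rfl⟩ := mem_zpowers_iff.mp hy
  exact (Commute.zpow_zpow_self g i j).eq

theorem sq_mul {p b z : G} (hp : p * p = z) (hi : p * b * p⁻¹ = b⁻¹) (hz : b * z = z * b) :
    p * b * (p * b) = z := by
  calc p * b * (p * b) = (p * b * p⁻¹) * (p * p) * b := by group
    _ = z := by rw [hi, hp, mul_assoc, ← hz]; group

theorem UI.qu [Finite G] {Q : Subgroup G} {z : G} (h : UI Q z) (hQ : IsPGroup 2 Q)
    (hc : ¬ IsCyclic Q) : QU Q z := by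
  obtain ⟨g, b, v, hv, hvv, hbb, hi, -, hm⟩ := h.gens hQ hc
  have hb : b ∈ Q := (hm b).mpr ⟨0, Or.inr (by simp)⟩
  have hg : zpowers g ≤ Q := fun x hx =>
    let ⟨i, hi⟩ := mem_zpowers_iff.mp hx; (hm x).mpr ⟨i, Or.inl hi.symm⟩
  refine ⟨h, hQ, fun x hx => ?_⟩
  obtain ⟨i, rfl | rfl⟩ := (hm x).mp hx
  · exact ⟨b, hb, hbb, conj_inv_of_gen hi (zpow_mem_zpowers g i)⟩
  · refine ⟨v, hg hv, hvv, ?_⟩
    have h1 := conj_inv_of_gen hi (zpow_mem_zpowers g i)
    have h2 := conj_inv_of_gen hi hv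
    have h3 := comm_of_gen hv (zpow_mem_zpowers g i)
    have h4 := h.comm' hb
    generalize g ^ i = c at *
    have h5 : c * b * (c * b) = z := by
      calc c * b * (c * b) = c * (b * c * b⁻¹) * (b * b) := by group
        _ = z := by rw [h1, hbb]; group
    rw [h.inv_of_sq h5]
    calc v * (c * b) * v⁻¹ = (v * c) * (b * v * b⁻¹)⁻¹ * b := by group
      _ = c * (v * v) * b := by rw [h2, h3]; group
      _ = c * b * z := by rw [hvv, mul_assoc, ← h4, mul_assoc]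

namespace QU

variable {Q : Subgroup G} {z : G}

/-- Two elements of order 4, one inverting the other. -/
theorem pair (h : QU Q z) : ∃ u ∈ Q, ∃ v ∈ Q, u * u = z ∧ v * v = z ∧ u * v * u⁻¹ = v⁻¹ := by
  obtain ⟨v, hv, hvv, -⟩ := h.ex 1 Q.one_mem
  obtain ⟨u, hu, huu, hi⟩ := h.ex v hv
  exact ⟨u, hu, v, hv, huu, hvv, hi⟩

theorem sq_of_central (h : QU Q z) {a : G} (ha : a ∈ Q) (hc : ∀ q ∈ Q, q * a = a * q) :
    a * a = 1 := by
  obtain ⟨p, hp, -, hi⟩ := h.ex a ha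
  rw [hc p hp, mul_inv_cancel_right] at hi
  nth_rewrite 1 [hi]; group

/-- An involution acting nontrivially inverts an element of order 4. -/
theorem exists_inverted (h : QU Q z) {w : G} (hw : w * w = 1) (hn : w ∈ normalizer (Q : Set G))
    (hc : ¬ ∀ q ∈ Q, w * q * w⁻¹ = q) : ∃ a ∈ Q, a * a = z ∧ w * a * w⁻¹ = a⁻¹ := by
  have hwi : w⁻¹ = w := inv_eq_of_mul_eq_one_right hw
  have hz := h.toUI.conj_eq hn
  have key : ∀ b ∈ Q, (∃ a ∈ Q, a * a = z ∧ w * a * w⁻¹ = a⁻¹) ∨ w * b * w⁻¹ = b ∨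
      w * b * w⁻¹ = b * z := by
    intro b hb
    have hd : b⁻¹ * (w * b * w⁻¹) ∈ Q := Q.mul_mem (Q.inv_mem hb) (conj_mem_of_mem_normalizer hn hb)
    have hi : w * (b⁻¹ * (w * b * w⁻¹)) * w⁻¹ = (b⁻¹ * (w * b * w⁻¹))⁻¹ := by
      calc w * (b⁻¹ * (w * b * w⁻¹)) * w⁻¹ = w * b⁻¹ * w⁻¹ * (w * w) * b * (w * w)⁻¹ := by group
        _ = _ := by rw [hw]; group
    by_cases h2 : b⁻¹ * (w * b * w⁻¹) * (b⁻¹ * (w * b * w⁻¹)) = 1
    · right
      rcases h.uniq _ hd h2 with e | e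
      · left; rw [inv_mul_eq_one] at e; exact e.symm
      · right; rw [← e]; group
    · obtain ⟨j, hj⟩ := h.toUI.pow_sq hd (TE.of_mem h.pg hd) h2
      exact Or.inl ⟨_, Q.pow_mem hd j, hj, by rw [← conj_pow, hi, inv_pow]⟩
  push Not at hc
  obtain ⟨b, hb, hne⟩ := hc
  rcases key b hb with e | e | e
  · exact e
  · exact absurd e hne
  obtain ⟨p, hp, hpp, hi⟩ := h.ex b hb
  rcases key p hp with e' | e' | e'
  · exact e'
  · have h5 := sq_mul hpp hi (h.toUI.comm' hb)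
    refine ⟨p * b, Q.mul_mem hp hb, h5, ?_⟩
    rw [h.toUI.inv_of_sq h5, ← conj_mul, e, e', mul_assoc]
  · exact ⟨p, hp, hpp, by rw [e', h.toUI.inv_of_sq hpp]⟩

end QU

theorem commutator_eq_top {X : Subgroup G} (hX : ⁅X, X⁆ = X) : _root_.commutator X = ⊤ := by
  apply map_injective X.subtype_injective
  rw [_root_.commutator_def, map_commutator, ← MonoidHom.range_eq_map, range_subtype, hX]

theorem not_cyclic [Finite G] {X P : Subgroup G} (hX : ⁅X, X⁆ = X) (hP : SylowIn 2 P X)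
    (h2 : 2 ∣ Nat.card X) : ¬ IsCyclic P := fun hc => by
  obtain ⟨T, hT⟩ := hP.exists_sylow
  have h : IsCyclic (T : Subgroup X) := by
    rw [hT]; exact (subgroupOfEquivOfLe hP.le).isCyclic.mpr hc
  have h1 := h.normalizer_le_centralizer ((Nat.minFac_eq_two_iff _).2 h2)
  refine MonoidHom.not_dvd_card_ker_transferSylow T h1 ?_
  letI : CommGroup (T : Subgroup X) := IsCyclic.commGroup
  rwa [eq_top_iff.2 ((commutator_eq_top hX).ge.trans
    (Abelianization.commutator_subset_ker (MonoidHom.transferSylow T h1))), Subgroup.card_top]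

theorem UI.mem_sylow [Finite G] {X P : Subgroup G} {z : G} (h : UI X z) (hP : SylowIn 2 P X) :
    z ∈ P := by
  refine hP.le_of_normalizes (TE.of_sq h.sq).pg (zpowers_le.mpr h.mem) (zpowers_le.mpr ?_)
    (mem_zpowers z)
  exact centralizer_le_normalizer _ fun x hx => h.comm' (hP.le hx)

theorem UI.sylow [Finite G] {X P : Subgroup G} {z : G} (h : UI X z) (hX : ⁅X, X⁆ = X)
    (hP : SylowIn 2 P X) : QU P z := by
  refine (h.mono hP.le (h.mem_sylow hP)).qu hP.isPGroup (not_cyclic hX hP ?_)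
  rw [← orderOf_eq_prime (p := 2) (by rw [pow_two, h.sq]) h.ne]
  exact Subgroup.orderOf_dvd_natCard X h.mem

/-- In a perfect group with a unique involution all elements of order 4 are conjugate. -/
theorem UI.conj4 [Finite G] {X : Subgroup G} {z : G} (h : UI X z) (hX : ⁅X, X⁆ = X) {x y : G}
    (hx : x ∈ X) (hy : y ∈ X) (hxx : x * x = z) (hyy : y * y = z) :
    ∃ g ∈ X, g * x * g⁻¹ = y := by
  haveI : Fact (Nat.Prime 2) := ⟨Nat.prime_two⟩
  obtain ⟨P, hP⟩ := exists_sylowIn 2 X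
  have hq := h.sylow hX hP
  have hc : ¬ IsCyclic P := fun hc => by
    obtain ⟨u, hu, v, hv, -, hvv, hi⟩ := hq.pair
    have := congrArg Subtype.val (hc.commGroup.mul_comm (⟨u, hu⟩ : P) ⟨v, hv⟩)
    simp only [coe_mul] at this
    rw [this, mul_inv_cancel_right] at hi
    exact h.ne_inv hvv hi.symm
  obtain ⟨g, b, v, hv, hvv, hbb, hi, hn, hm⟩ := hq.toUI.gens hP.isPGroup hc
  have hb : b ∈ P := (hm b).mpr ⟨0, Or.inr (by simp)⟩
  have hg : zpowers g ≤ P := fun x hx =>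
    let ⟨i, hi⟩ := mem_zpowers_iff.mp hx; (hm x).mpr ⟨i, Or.inl hi.symm⟩
  have hzg : z ∈ zpowers g := hvv ▸ mul_mem hv hv
  have hM : (zpowers g).relIndex P = 2 := by
    refine relIndex_eq_two_iff.mpr ⟨b, hb, fun c hc => ?_⟩
    obtain ⟨i, rfl | rfl⟩ := (hm c).mp hc
    · exact Or.inr ⟨zpow_mem_zpowers g i, fun e =>
        hn ((mul_mem_cancel_left (zpow_mem_zpowers g i)).mp e)⟩
    · exact Or.inl ⟨by rw [mul_assoc, hbb]; exact mul_mem (zpow_mem_zpowers g i) hzg, fun e =>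
        hn ((mul_mem_cancel_left (zpow_mem_zpowers g i)).mp e)⟩
  have key : ∀ x ∈ X, x * x = z → ∃ k ∈ X, k * x * k⁻¹ = v := by
    intro x hx hxx
    have h0 : ∃ k ∈ X, k * x * k⁻¹ ∈ zpowers g := by
      by_contra hne
      push Not at hne
      have ho : orderOf (⟨x, hx⟩ : X) = 2 ^ (1 + 1) := by
        refine orderOf_eq_prime_pow (fun e => h.ne ?_) (Subtype.ext ?_)
        · rw [← hxx, ← pow_two]; exact congrArg Subtype.val e
        · change x ^ 4 = 1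
          rw [show 4 = 2 + 2 from rfl, pow_add, pow_two, hxx, h.sq]
      obtain ⟨N, hN, h2, -⟩ := H73.exists_index_two_of_transfer (P.subgroupOf X)
        ((zpowers g).subgroupOf X) (Nat.not_even_iff_odd.mp fun e =>
          hP.not_dvd_relIndex (even_iff_two_dvd.mp e))
        (by rw [relIndex_subgroupOf hP.le, hM]) ⟨x, hx⟩ ho (fun k => hne k k.2) (by
          intro k i hi1 hi2 _ _
          change (k : G) * x ^ 2 ^ i * (k : G)⁻¹ ∈ zpowers g
          obtain ⟨j, rfl⟩ : ∃ j, i = j + 1 := ⟨i - 1, by omega⟩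
          rw [pow_succ', pow_mul, pow_two, hxx, ← conj_pow, h.conj_eq (le_normalizer k.2)]
          exact pow_mem hzg _)
      have h3 := (commutator_eq_top hX).ge.trans
        (Abelianization.commutator_subset_ker (H73.signHom N h2))
      have h4 : N = ⊤ := eq_top_iff.mpr fun a _ => (H73.signHom_eq_one_iff h2).mp (h3 (mem_top a))
      rw [h4, index_top] at h2
      omega
    obtain ⟨k, hk, hkx⟩ := h0
    have h1 : k * x * k⁻¹ * (k * x * k⁻¹) = z := by rw [conj_mul, hxx, h.conj_eq (le_normalizer hk)]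
    have h2 := comm_of_gen hkx (inv_mem hv)
    have h3 : k * x * k⁻¹ * v⁻¹ * (k * x * k⁻¹ * v⁻¹) = 1 := by
      generalize k * x * k⁻¹ = c at *
      calc c * v⁻¹ * (c * v⁻¹) = c * (v⁻¹ * c) * v⁻¹ := by group
        _ = (c * c) * (v * v)⁻¹ := by rw [← h2]; group
        _ = 1 := by rw [h1, hvv]; group
    rcases h.uniq _ (hP.le (hg (mul_mem hkx (inv_mem hv)))) h3 with e | e
    · exact ⟨k, hk, mul_inv_eq_one.mp e⟩
    · refine ⟨b * k, mul_mem (hP.le hb) hk, ?_⟩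
      have h4 : k * x * k⁻¹ = v⁻¹ := by
        rw [h.inv_of_sq hvv, h.comm' (hP.le (hg hv)), ← e]; group
      calc b * k * x * (b * k)⁻¹ = b * (k * x * k⁻¹) * b⁻¹ := by group
        _ = v := by rw [h4, conj_inv_of_gen hi (inv_mem hv), inv_inv]
  obtain ⟨k, hk, e⟩ := key x hx hxx
  obtain ⟨l, hl, e'⟩ := key y hy hyy
  refine ⟨l⁻¹ * k, mul_mem (inv_mem hl) hk, ?_⟩
  calc l⁻¹ * k * x * (l⁻¹ * k)⁻¹ = l⁻¹ * (k * x * k⁻¹) * l := by group
    _ = y := by rw [e, ← e']; group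

end H82.IN
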